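import Mathlib
import Cfsg.Agent.Lib.Hall.CoprimeCommutator

/-!
# Subnormality through iterated commutators.
-/

set_option autoImplicit false

namespace Cfsg.Agent.Lib.Hall

open Cfsg Subgroup
open scoped Pointwise commutatorElement

variable {G : Type*} [Group G]

/-- Conjugation-closedness under a subgroup gives normalizing. -/
theorem le_normalizer_of_conj_closed {A X : Subgroup G}
    (h : ∀ a ∈ A, ∀ x ∈ X, a * x * a⁻¹ ∈ X) : A ≤ normalizer (X : Set G) := by
  intro a ha
  rw [Subgroup.mem_normalizer_iff]
  intro x
  constructor
  · exact h a ha x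
  · intro hx
    have := h a⁻¹ (A.inv_mem ha) _ hx
    have e : a⁻¹ * (a * x * a⁻¹) * a⁻¹⁻¹ = x := by group
    rwa [e] at this

/-- A subgroup is subnormal iff an iterated commutator `[G, H, …, H]` lies in it. -/
theorem isSubnormal_iff_iterate_commutator (H : Subgroup G) :
    H.IsSubnormal ↔ ∃ m : ℕ, (fun K : Subgroup G => ⁅K, H⁆)^[m] ⊤ ≤ H := by
  classical
  constructor
  · intro hH
    induction hH with
    | top => exact ⟨0, le_refl _⟩
    | step H K hle hK hN ih =>
      obtain ⟨m, hm⟩ := ih
      refine ⟨m + 1, ?_⟩
      have hmono : ∀ k : ℕ, (fun L : Subgroup G => ⁅L, H⁆)^[k] ⊤ ≤ (fun L : Subgroup G => ⁅L, K⁆)^[k] ⊤ := by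
        intro k
        induction k with
        | zero => exact le_refl _
        | succ k ihk =>
          rw [Function.iterate_succ_apply', Function.iterate_succ_apply']
          exact Subgroup.commutator_mono ihk hle
      rw [Function.iterate_succ_apply']
      rw [Subgroup.commutator_le]
      intro x hx h hh
      have hxK : x ∈ K := hm (hmono m hx)
      have h1 : x * h * x⁻¹ ∈ H := by
        have := hN.conj_mem ⟨h, hle hh⟩ (by simpa [Subgroup.mem_subgroupOf] using hh) ⟨x, hxK⟩
        simpa [Subgroup.mem_subgroupOf] using this
      exact H.mul_mem h1 (H.inv_mem hh)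
  · rintro ⟨m, hm⟩
    -- the chain `H ⊔ K_i`
    let K : ℕ → Subgroup G := fun i => (fun L : Subgroup G => ⁅L, H⁆)^[i] ⊤
    have hK0 : K 0 = ⊤ := rfl
    have hKs : ∀ i, K (i + 1) = ⁅K i, H⁆ := fun i => Function.iterate_succ_apply' _ _ _
    have hHN : ∀ i, H ≤ Subgroup.normalizer (K i : Set G) := by
      intro i
      induction i with
      | zero => rw [hK0, Subgroup.normalizer_eq_top_iff.mpr inferInstance]; exact le_top
      | succ i ih =>
        rw [hKs]
        exact Cfsg.Agent.Lib.Hall.le_normalizer_commutator_right ih
    have hKle : ∀ i, K (i + 1) ≤ K i := by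
      intro i
      rw [hKs, Subgroup.commutator_le]
      intro x hx h hh
      have h1 : h * x⁻¹ * h⁻¹ ∈ K i := (Subgroup.mem_normalizer_iff.mp (hHN i hh) x⁻¹).mp ((K i).inv_mem hx)
      have h2 : ⁅x, h⁆ = x * (h * x⁻¹ * h⁻¹) := by
        rw [commutatorElement_def]
        group
      rw [h2]
      exact (K i).mul_mem hx h1
    have hsub : ∀ i, (H ⊔ K i).IsSubnormal := by
      intro i
      induction i with
      | zero =>
        rw [hK0, sup_top_eq]
        exact Subgroup.IsSubnormal.top
      | succ i ih =>
        refine Subgroup.IsSubnormal.step _ (H ⊔ K i) (sup_le_sup_left (hKle i) H) ih ?_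
        -- normality
        rw [Subgroup.normal_subgroupOf_iff_le_normalizer (sup_le_sup_left (hKle i) H)]
        rw [hKs]
        apply sup_le
        · -- `H` normalizes
          apply le_normalizer_of_conj_closed
          intro a ha x hx
          have hle : H ⊔ ⁅K i, H⁆ ≤ (H ⊔ ⁅K i, H⁆).comap (MulAut.conj a).toMonoidHom := by
            apply sup_le
            · intro y hy
              exact Subgroup.mem_sup_left (H.mul_mem (H.mul_mem ha hy) (H.inv_mem ha))
            · intro y hy
              have h2 := hHN (i + 1) ha
              rw [hKs] at h2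
              exact Subgroup.mem_sup_right ((Subgroup.mem_normalizer_iff.mp h2 y).mp hy)
          exact hle hx
        · apply le_normalizer_of_conj_closed
          intro k hk x hx
          have hle : H ⊔ ⁅K i, H⁆ ≤ (H ⊔ ⁅K i, H⁆).comap (MulAut.conj k).toMonoidHom := by
            apply sup_le
            · intro y hy
              have h3 : k * y * k⁻¹ = ⁅k, y⁆ * y := by
                rw [commutatorElement_def]
                group
              show k * y * k⁻¹ ∈ H ⊔ ⁅K i, H⁆
              rw [h3]
              exact Subgroup.mul_mem _ (Subgroup.mem_sup_right (Subgroup.commutator_mem_commutator hk hy))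
                (Subgroup.mem_sup_left hy)
            · intro y hy
              have h2 := Cfsg.Agent.Lib.Hall.le_normalizer_commutator_left H (K i) hk
              exact Subgroup.mem_sup_right ((Subgroup.mem_normalizer_iff.mp h2 y).mp hy)
          exact hle hx
    have := hsub m
    rwa [sup_eq_left.mpr hm] at this


end Cfsg.Agent.Lib.Hall
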