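import Mathlib
import Cfsg.Agent.Lib.Core.CoreFree

/-!
# Core-free maximal subgroups: the centralizer lemma, two minimal normal subgroups, the `p`-core.
-/

set_option autoImplicit false

namespace Cfsg.Agent.Lib.Core

open Cfsg Subgroup
open scoped Pointwise commutatorElement IsMulCommutative

variable {G : Type*} [Group G]

/-- S0549. -/
theorem coreFree_centralizer {U : Subgroup G} (hU : IsCoatom U) (hcore : U.normalCore = ⊥)
    (N : Subgroup G) [hN : N.Normal] (hN1 : N ≠ ⊥) :
    centralizer (N : Set G) ⊓ U = ⊥ ∧ (centralizer (N : Set G) = ⊥ ∨ (centralizer (N : Set G) ≠ ⊥ ∧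
      ∀ K : Subgroup G, K.Normal → K ≤ centralizer (N : Set G) → K = ⊥ ∨ K = centralizer (N : Set G))) := by
  have h1 := centralizer_inf_coreFree hU hcore N hN1
  refine ⟨h1, ?_⟩
  by_cases hC : centralizer (N : Set G) = ⊥
  · exact Or.inl hC
  · refine Or.inr ⟨hC, ?_⟩
    intro K hK hKC
    by_cases hK1 : K = ⊥
    · exact Or.inl hK1
    · exact Or.inr (eq_of_normal_le_of_inf_eq_bot hU hcore h1 hKC hK1)

/-- S0550. -/
theorem coreFree_two_minimal [Finite G] {U : Subgroup G} (hU : IsCoatom U) (hcore : U.normalCore = ⊥)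
    (A B : Subgroup G) [hAn : A.Normal] [hBn : B.Normal] (hA : A ≠ ⊥) (hB : B ≠ ⊥)
    (hAmin : ∀ K : Subgroup G, K.Normal → K ≤ A → K = ⊥ ∨ K = A)
    (hBmin : ∀ K : Subgroup G, K.Normal → K ≤ B → K = ⊥ ∨ K = B) (hAB : A ≠ B) :
    centralizer (B : Set G) = A ∧ centralizer (A : Set G) = B ∧ IsComplement' A U ∧ IsComplement' B U ∧
      ¬ IsMulCommutative A ∧ Nonempty (A ≃* B) ∧ Nonempty (A ≃* ↥((A ⊔ B) ⊓ U)) := by
  have hinf : A ⊓ B = ⊥ := by
    rcases hAmin (A ⊓ B) inferInstance inf_le_left with h | h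
    · exact h
    · exfalso
      have hAB' : A ≤ B := by
        rw [← h]
        exact inf_le_right
      rcases hBmin A hAn hAB' with h2 | h2
      · exact hA h2
      · exact hAB h2
  have hcomm : ∀ a ∈ A, ∀ b ∈ B, a * b = b * a := by
    intro a ha b hb
    have := Subgroup.commute_of_normal_of_disjoint A B hAn hBn (by
      rw [Subgroup.disjoint_def]
      intro x hx1 hx2
      have : x ∈ A ⊓ B := ⟨hx1, hx2⟩
      rwa [hinf, Subgroup.mem_bot] at this) a b ha hb
    exact this
  have hAC : A ≤ centralizer (B : Set G) := by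
    intro a ha
    rw [Subgroup.mem_centralizer_iff]
    intro b hb
    exact (hcomm a ha b hb).symm
  have hBC : B ≤ centralizer (A : Set G) := by
    intro b hb
    rw [Subgroup.mem_centralizer_iff]
    intro a ha
    exact hcomm a ha b hb
  have hCB := centralizer_inf_coreFree hU hcore B hB
  have hCA := centralizer_inf_coreFree hU hcore A hA
  have h1 : A = centralizer (B : Set G) := eq_of_normal_le_of_inf_eq_bot hU hcore hCB hAC hA
  have h2 : B = centralizer (A : Set G) := eq_of_normal_le_of_inf_eq_bot hU hcore hCA hBC hB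
  have hAU : A ⊓ U = ⊥ := by
    rw [h1]
    exact hCB
  have hBU : B ⊓ U = ⊥ := by
    rw [h2]
    exact hCA
  have hAs := sup_eq_top_of_coreFree hU hcore hA
  have hBs := sup_eq_top_of_coreFree hU hcore hB
  have hnc : ¬ IsMulCommutative A := by
    intro hab
    have : A ≤ centralizer (A : Set G) := by
      intro a ha
      rw [Subgroup.mem_centralizer_iff]
      intro b hb
      have := mul_comm' (⟨b, hb⟩ : A) ⟨a, ha⟩
      exact congrArg Subtype.val this
    rw [← h2] at this
    have h3 : A ⊓ B = A := inf_eq_left.mpr this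
    rw [hinf] at h3
    exact hA h3.symm
  -- the third isomorphism
  let D : Subgroup G := (A ⊔ B) ⊓ U
  have hDA : D ⊓ A = ⊥ := by
    rw [inf_comm, eq_bot_iff, ← hAU]
    exact le_inf inf_le_left (inf_le_right.trans inf_le_right)
  have hDB : D ⊓ B = ⊥ := by
    rw [inf_comm, eq_bot_iff, ← hBU]
    exact le_inf inf_le_left (inf_le_right.trans inf_le_right)
  have hded : ∀ {X : Subgroup G} [X.Normal], X ≤ A ⊔ B → X ⊔ U = ⊤ → D ⊔ X = A ⊔ B := by
    intro X _ hX hXU
    apply le_antisymm
    · exact sup_le inf_le_left hX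
    · intro y hy
      have : y ∈ X ⊔ U := by
        rw [hXU]
        exact Subgroup.mem_top y
      obtain ⟨x, hx, u, hu, rfl⟩ := exists_mul_of_mem_sup_normal_left this
      have hu' : u ∈ D := by
        refine ⟨?_, hu⟩
        have := (A ⊔ B).mul_mem ((A ⊔ B).inv_mem (hX hx)) hy
        rwa [inv_mul_cancel_left] at this
      rw [sup_comm]
      exact Subgroup.mul_mem _ (Subgroup.mem_sup_left hx) (Subgroup.mem_sup_right hu')
  have hBD : Nonempty (B ≃* D) := by
    apply nonempty_equiv_of_complements (N := A)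
    · rwa [inf_comm]
    · exact hDA
    · rw [sup_comm, hded le_sup_left hAs]
  have hAD : Nonempty (A ≃* D) := by
    apply nonempty_equiv_of_complements (N := B)
    · exact hinf
    · exact hDB
    · rw [hded le_sup_right hBs]
  obtain ⟨e1⟩ := hBD
  obtain ⟨e2⟩ := hAD
  exact ⟨h1.symm, h2.symm, isComplement'_of_inf_sup hAU hAs, isComplement'_of_inf_sup hBU hBs, hnc,
    ⟨e2.trans e1.symm⟩, ⟨e2⟩⟩

/-- A `q`-group acting by conjugation on a subgroup with no nontrivial fixed point: order `≡ 1 mod q`. -/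
theorem card_modEq_one_of_no_fixed [Finite G] {q : ℕ} [Fact q.Prime] {Z D : Subgroup G} (hZ : IsPGroup q Z)
    (hZD : Z ≤ normalizer (D : Set G)) (hfix : ∀ d ∈ D, (∀ z ∈ Z, z * d * z⁻¹ = d) → d = 1) :
    Nat.card D % q = 1 % q := by
  classical
  letI act : MulAction Z D :=
    { smul := fun a d => Cfsg.Agent.Lib.Hall.normalizerAut D (hZD a.2) d
      one_smul := fun d => by
        apply Subtype.ext
        show ((1 : Z) : G) * d * ((1 : Z) : G)⁻¹ = d
        simp
      mul_smul := fun a b d => by
        apply Subtype.ext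
        show ((a * b : Z) : G) * d * ((a * b : Z) : G)⁻¹ =
          (a : G) * ((b : G) * d * (b : G)⁻¹) * (a : G)⁻¹
        simp only [Subgroup.coe_mul]
        group }
  have hsmul : ∀ (a : Z) (d : D), ((a • d : D) : G) = (a : G) * d * (a : G)⁻¹ := fun _ _ => rfl
  have h1 := hZ.card_modEq_card_fixedPoints D
  have h2 : Nat.card (MulAction.fixedPoints Z D) = 1 := by
    rw [Nat.card_eq_one_iff_unique]
    refine ⟨⟨?_⟩, ⟨⟨1, ?_⟩⟩⟩
    · rintro ⟨a, ha⟩ ⟨b, hb⟩
      apply Subtype.ext
      have key : ∀ c : D, c ∈ MulAction.fixedPoints Z D → c = 1 := by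
        intro c hc
        apply Subtype.ext
        apply hfix c c.2
        intro z hz
        have h3 := congrArg Subtype.val (hc ⟨z, hz⟩)
        rwa [hsmul] at h3
      show a = b
      rw [key a ha, key b hb]
    · intro a
      apply Subtype.ext
      rw [hsmul]
      simp
  rw [h2] at h1
  exact h1

/-- S0587. -/
theorem coreFree_pCore [Finite G] (p : ℕ) [hpf : Fact p.Prime] (hL : pCore p G ≠ ⊥) (M : Subgroup G) (hM : IsCoatom M)
    (hcore : M.normalCore = ⊥) : IsElementaryAbelian p (pCore p G) ∧ IsComplement' (pCore p G) M ∧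
      (∀ K : Subgroup G, K.Normal → K ≤ pCore p G → K = ⊥ ∨ K = pCore p G) ∧
      centralizer ((pCore p G : Subgroup G) : Set G) = pCore p G ∧
      ∀ (q : ℕ) [Fact q.Prime], pCore q ↥M ≠ ⊥ → Nat.card (pCore p G) % q = 1 % q ∧ q ≠ p := by
  have hp : p.Prime := hpf.out
  set L := pCore p G with hLdef
  have hLn : L.Normal := pCore_normal p G
  have hLp : IsPGroup p L := pCore_isPGroup p G
  have hLnt : Nontrivial L := (Subgroup.nontrivial_iff_ne_bot L).mpr hL
  have hZnt : Nontrivial (center L) := hLp.center_nontrivial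
  let Z : Subgroup G := (center L).map L.subtype
  have hZn : Z.Normal := normal_map_of_characteristic L (center L)
  have hZne : Z ≠ ⊥ := by
    intro h
    obtain ⟨z, hz⟩ := exists_ne (1 : center L)
    apply hz
    have h1 : (((z : center L) : L) : G) ∈ Z := ⟨z, z.2, rfl⟩
    rw [h, Subgroup.mem_bot] at h1
    exact Subtype.ext (Subtype.ext h1)
  have hZL : Z ≤ L := Subgroup.map_subtype_le _
  have hZc : ∀ z ∈ Z, ∀ x ∈ L, x * z = z * x := by
    rintro _ ⟨z, hz, rfl⟩ x hx
    have := Subgroup.mem_center_iff.mp hz ⟨x, hx⟩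
    exact congrArg Subtype.val this
  have hCZ := centralizer_inf_coreFree hM hcore Z hZne
  have hZC : Z ≤ centralizer (Z : Set G) := by
    intro z hz
    rw [Subgroup.mem_centralizer_iff]
    intro y hy
    exact hZc z hz y (hZL hy)
  have hZeqC : Z = centralizer (Z : Set G) := eq_of_normal_le_of_inf_eq_bot hM hcore hCZ hZC hZne
  have hLC : L ≤ centralizer (Z : Set G) := by
    intro x hx
    rw [Subgroup.mem_centralizer_iff]
    intro z hz
    exact (hZc z hz x hx).symm
  have hLZ : L = Z := le_antisymm (hZeqC ▸ hLC) hZL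
  have hLab : ∀ x ∈ L, ∀ y ∈ L, x * y = y * x := by
    intro x hx y hy
    rw [hLZ] at hy
    exact hZc y hy x hx
  have hLcomm : IsMulCommutative L := IsMulCommutative.of_comm (fun a b =>
    Subtype.ext (hLab a a.2 b b.2))
  have hCL : centralizer (L : Set G) = L := by
    rw [hLZ, ← hZeqC]
  have hLM : L ⊓ M = ⊥ := by
    rw [hLZ, hZeqC]
    exact hCZ
  have hLs := sup_eq_top_of_coreFree hM hcore hL
  have hmin : ∀ K : Subgroup G, K.Normal → K ≤ L → K = ⊥ ∨ K = L := by
    intro K hK hKL
    by_cases hK1 : K = ⊥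
    · exact Or.inl hK1
    · exact Or.inr (eq_of_normal_le_of_inf_eq_bot hM hcore hLM hKL hK1)
  -- elementary
  have hel : ∀ a ∈ L, a ^ p = 1 := by
    let E : Subgroup G :=
      { carrier := {x | x ∈ L ∧ x ^ p = 1}
        mul_mem' := by
          rintro a b ⟨ha, ha'⟩ ⟨hb, hb'⟩
          refine ⟨L.mul_mem ha hb, ?_⟩
          have : Commute a b := hLab a ha b hb
          rw [this.mul_pow, ha', hb', one_mul]
        one_mem' := ⟨L.one_mem, one_pow _⟩
        inv_mem' := by
          rintro a ⟨ha, ha'⟩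
          exact ⟨L.inv_mem ha, by rw [inv_pow, ha', inv_one]⟩ }
    have hEn : E.Normal := by
      constructor
      rintro a ⟨ha, ha'⟩ g
      refine ⟨hLn.conj_mem a ha g, ?_⟩
      rw [← MulAut.conj_apply, ← map_pow, ha', map_one]
    have hEne : E ≠ ⊥ := by
      have hdvd : p ∣ Nat.card L := by
        obtain ⟨k, hk⟩ := IsPGroup.iff_card.mp hLp
        have h1 : 1 < Nat.card L := Finite.one_lt_card_iff_nontrivial.mpr hLnt
        rw [hk] at h1 ⊢
        rcases k with _ | k
        · simp at h1
        · exact dvd_pow_self p (Nat.succ_ne_zero k)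
      obtain ⟨x, hx⟩ := exists_prime_orderOf_dvd_card' p hdvd
      intro h
      have hxE : (x : G) ∈ E := by
        refine ⟨x.2, ?_⟩
        have h2 : x ^ p = 1 := by
          rw [← hx, pow_orderOf_eq_one]
        exact congrArg Subtype.val h2
      rw [h, Subgroup.mem_bot] at hxE
      have h3 : x = 1 := Subtype.ext hxE
      rw [h3, orderOf_one] at hx
      exact hp.one_lt.ne hx
    have hEL : E ≤ L := fun x hx => hx.1
    rcases hmin E hEn hEL with h | h
    · exact absurd h hEne
    · intro a ha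
      rw [← h] at ha
      exact ha.2
  refine ⟨⟨hLcomm, hel⟩, isComplement'_of_inf_sup hLM hLs, hmin, hCL, ?_⟩
  intro q _ hQ
  let Q' : Subgroup G := (pCore q M).map M.subtype
  have hQq : IsPGroup q Q' := (pCore_isPGroup q M).map M.subtype
  have hQM : M ≤ normalizer (Q' : Set G) := by
    intro m hm
    rw [Subgroup.mem_normalizer_iff]
    have hQn : (pCore q M).Normal := pCore_normal q M
    intro y
    constructor
    · rintro ⟨z, hz, rfl⟩
      exact ⟨⟨m, hm⟩ * z * ⟨m, hm⟩⁻¹, hQn.conj_mem z hz _, by simp⟩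
    · rintro ⟨z, hz, hzy⟩
      refine ⟨⟨m, hm⟩⁻¹ * z * ⟨m, hm⟩, ?_, ?_⟩
      · have := hQn.conj_mem z hz ⟨m, hm⟩⁻¹
        rwa [inv_inv] at this
      · simp only [Subgroup.subtype_apply, Subgroup.coe_mul, Subgroup.coe_inv] at hzy ⊢
        rw [hzy]
        group
  have hQMle : Q' ≤ M := Subgroup.map_subtype_le _
  let D : Subgroup G := L ⊓ centralizer (Q' : Set G)
  have hDn : D.Normal := by
    apply normal_of_le_normalizer_of_sup (A := L) (B := M) hLs
    · apply le_normalizer_of_le_centralizer
      intro x hx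
      rw [Subgroup.mem_centralizer_iff]
      intro y hy
      exact hLab y hy x hx.1
    · intro m hm
      have h1 : m ∈ normalizer ((centralizer (Q' : Set G) : Subgroup G) : Set G) := by
        rw [Subgroup.mem_normalizer_iff]
        have hm' := Subgroup.mem_normalizer_iff.mp (hQM hm)
        intro x
        rw [Subgroup.mem_centralizer_iff, Subgroup.mem_centralizer_iff]
        constructor
        · intro hx y hy
          have h2 := hx (m⁻¹ * y * m) (by
            have := (hm' (m⁻¹ * y * m)).mpr (by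
              have e : m * (m⁻¹ * y * m) * m⁻¹ = y := by group
              rw [e]
              exact hy)
            exact this)
          calc y * (m * x * m⁻¹) = m * ((m⁻¹ * y * m) * x) * m⁻¹ := by group
            _ = m * (x * (m⁻¹ * y * m)) * m⁻¹ := by rw [h2]
            _ = m * x * m⁻¹ * y := by group
        · intro hx y hy
          have h2 := hx (m * y * m⁻¹) ((hm' y).mp hy)
          have h3 : m * (y * x) * m⁻¹ = m * (x * y) * m⁻¹ := by
            calc m * (y * x) * m⁻¹ = (m * y * m⁻¹) * (m * x * m⁻¹) := by group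
              _ = (m * x * m⁻¹) * (m * y * m⁻¹) := h2
              _ = m * (x * y) * m⁻¹ := by group
          exact mul_left_cancel (mul_right_cancel h3)
      rw [Subgroup.mem_normalizer_iff]
      intro x
      have hL1 := Subgroup.mem_normalizer_iff.mp (Subgroup.normalizer_eq_top_iff.mpr hLn ▸ Subgroup.mem_top m) x
      have hL2 := Subgroup.mem_normalizer_iff.mp h1 x
      constructor
      · rintro ⟨h3, h4⟩
        exact ⟨hL1.mp h3, hL2.mp h4⟩
      · rintro ⟨h3, h4⟩
        exact ⟨hL1.mpr h3, hL2.mpr h4⟩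
  have hDbot : D = ⊥ := by
    rcases hmin D hDn inf_le_left with h | h
    · exact h
    · exfalso
      apply hQ
      have hLCQ : L ≤ centralizer (Q' : Set G) := by
        rw [← h]
        exact inf_le_right
      have hQC : Q' ≤ centralizer (L : Set G) := by
        intro y hy
        rw [Subgroup.mem_centralizer_iff]
        intro x hx
        exact (Subgroup.mem_centralizer_iff.mp (hLCQ hx) y hy).symm
      rw [hCL] at hQC
      have hQbot : Q' ≤ L ⊓ M := le_inf hQC hQMle
      rw [hLM, le_bot_iff] at hQbot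
      exact (Subgroup.map_eq_bot_iff_of_injective _ M.subtype_injective).mp hQbot
  have hfix : ∀ d ∈ L, (∀ z ∈ Q', z * d * z⁻¹ = d) → d = 1 := by
    intro d hd hz
    have : d ∈ D := by
      refine ⟨hd, ?_⟩
      show d ∈ centralizer (Q' : Set G)
      rw [Subgroup.mem_centralizer_iff]
      intro y hy
      have h1 := hz y hy
      calc y * d = y * d * y⁻¹ * y := by group
        _ = d * y := by rw [h1]
    rwa [hDbot, Subgroup.mem_bot] at this
  have hQNL : Q' ≤ normalizer (L : Set G) := by
    rw [Subgroup.normalizer_eq_top_iff.mpr hLn]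
    exact le_top
  refine ⟨card_modEq_one_of_no_fixed hQq hQNL hfix, ?_⟩
  rintro rfl
  have hdvd : q ∣ Nat.card L := by
    obtain ⟨k, hk⟩ := IsPGroup.iff_card.mp hLp
    have h1 : 1 < Nat.card L := Finite.one_lt_card_iff_nontrivial.mpr hLnt
    rw [hk] at h1 ⊢
    rcases k with _ | k
    · simp at h1
    · exact dvd_pow_self q (Nat.succ_ne_zero k)
  obtain ⟨d, hd, hd1, hdz⟩ := Cfsg.Agent.Lib.Hall.exists_fixed_of_pgroup_action hQq hQNL hdvd
  exact hd1 (hfix d hd hdz)

end Cfsg.Agent.Lib.Core
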