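import Mathlib
import Cfsg.Agent.Lib.Core.Conj
import Cfsg.Agent.Lib.Hall.CoprimeSylow

/-!
# Matsuyama's lemma.
-/

set_option autoImplicit false

namespace Cfsg.Agent.Lib.Core

open Subgroup
open scoped Pointwise

variable {G : Type*} [Group G] [Finite G]

/-- An element `y` whose conjugates of the generating members stay in `sSup 𝒜` normalizes it. -/
theorem mem_normalizer_of_conj_le_sSup {𝒜 : Set (Subgroup G)} {y : G}
    (h : ∀ U ∈ 𝒜, MulAut.conj y • U ≤ sSup 𝒜) : y ∈ normalizer ((sSup 𝒜 : Subgroup G) : Set G) := by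
  have h1 : sSup 𝒜 ≤ MulAut.conj y⁻¹ • sSup 𝒜 := by
    apply sSup_le
    intro U hU u hu
    rw [mem_conj_smul_iff, inv_inv]
    exact h U hU (conj_mem_conj_smul hu)
  have h2 : sSup 𝒜 = MulAut.conj y⁻¹ • sSup 𝒜 := Subgroup.eq_of_le_of_card_ge h1 (by
    rw [card_conj_smul])
  have h3 : y⁻¹ ∈ normalizer ((sSup 𝒜 : Subgroup G) : Set G) := mem_normalizer_of_conj_smul_eq h2.symm
  simpa using (normalizer ((sSup 𝒜 : Subgroup G) : Set G)).inv_mem h3

/-- **Matsuyama's lemma.** -/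
theorem matsuyama (p : ℕ) [Fact p.Prime] (Z Y : Subgroup G)
    (h : ∀ g : G, IsPGroup p ↥(⨆ y ∈ Y, MulAut.conj (y * g) • Z)) :
    ∃ P : Sylow p G, Y ≤ normalizer ((⨆ g ∈ {g : G | MulAut.conj g • Z ≤ (P : Subgroup G)},
      MulAut.conj g • Z : Subgroup G) : Set G) := by
  classical
  let F : Set (Set (Subgroup G)) := {𝒜 | (∀ U ∈ 𝒜, ∃ g : G, U = MulAut.conj g • Z) ∧
    (∀ U ∈ 𝒜, ∀ y ∈ Y, MulAut.conj y • U ∈ 𝒜) ∧ IsPGroup p ↥(sSup 𝒜)}
  have hF0 : (∅ : Set (Subgroup G)) ∈ F := by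
    refine ⟨fun U hU => absurd hU (Set.notMem_empty U), fun U hU => absurd hU (Set.notMem_empty U), ?_⟩
    rw [sSup_empty]
    exact IsPGroup.of_bot
  obtain ⟨𝒜, hA, hmax⟩ := (Set.toFinite F).exists_maximal ⟨∅, hF0⟩
  set J : Subgroup G := sSup 𝒜 with hJ
  have hJp : IsPGroup p J := hA.2.2
  have hYJ : Y ≤ normalizer ((J : Subgroup G) : Set G) := by
    intro y hy
    apply mem_normalizer_of_conj_le_sSup
    intro U hU
    exact le_sSup (hA.2.1 U hU y hy)
  -- the key step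
  have hstep : ∀ g : G, MulAut.conj g • Z ≤ normalizer ((J : Subgroup G) : Set G) → MulAut.conj g • Z ≤ J := by
    intro g hg
    let W : Subgroup G := ⨆ y ∈ Y, MulAut.conj (y * g) • Z
    have hWp : IsPGroup p W := h g
    have hWN : W ≤ normalizer ((J : Subgroup G) : Set G) := by
      apply iSup₂_le
      intro y hy x hx
      rw [mem_conj_smul_iff] at hx
      have h1 : g⁻¹ * (y⁻¹ * x * y) * g ∈ Z := by
        have e : g⁻¹ * (y⁻¹ * x * y) * g = (y * g)⁻¹ * x * (y * g) := by group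
        rw [e]
        exact hx
      have h2 : y⁻¹ * x * y ∈ MulAut.conj g • Z := mem_conj_smul_iff.mpr h1
      have h3 := hg h2
      have h4 := Subgroup.mul_mem _ (Subgroup.mul_mem _ (hYJ hy) h3) (Subgroup.inv_mem _ (hYJ hy))
      have e : y * (y⁻¹ * x * y) * y⁻¹ = x := by group
      rwa [e] at h4
    have hsupp : IsPGroup p ↥(W ⊔ J) := IsPGroup.to_sup_of_normal_right' hWp hJp hWN
    let O : Set (Subgroup G) := {U | ∃ y ∈ Y, U = MulAut.conj (y * g) • Z}
    have hnew : 𝒜 ∪ O ∈ F := by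
      refine ⟨?_, ?_, ?_⟩
      · rintro U (hU | ⟨y, hy, rfl⟩)
        · exact hA.1 U hU
        · exact ⟨_, rfl⟩
      · rintro U (hU | ⟨y, hy, rfl⟩) y' hy'
        · exact Or.inl (hA.2.1 U hU y' hy')
        · refine Or.inr ⟨y' * y, Y.mul_mem hy' hy, ?_⟩
          rw [conj_smul_conj_smul, mul_assoc]
      · apply hsupp.to_le
        apply sSup_le
        rintro U (hU | ⟨y, hy, rfl⟩)
        · exact (le_sSup hU).trans le_sup_right
        · have h5 : MulAut.conj (y * g) • Z ≤ W :=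
            le_iSup₂_of_le (f := fun y (_ : y ∈ Y) => MulAut.conj (y * g) • Z) y hy le_rfl
          exact h5.trans le_sup_left
    have hle : 𝒜 ∪ O ⊆ 𝒜 := hmax hnew Set.subset_union_left
    have hmem : MulAut.conj g • Z ∈ 𝒜 := by
      apply hle
      refine Or.inr ⟨1, Y.one_mem, ?_⟩
      rw [one_mul]
    exact le_sSup hmem
  obtain ⟨P, hP⟩ := hJp.exists_le_sylow
  refine ⟨P, ?_⟩
  set J' : Subgroup G := ⨆ g ∈ {g : G | MulAut.conj g • Z ≤ (P : Subgroup G)}, MulAut.conj g • Z with hJ'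
  have hJ'P : J' ≤ P := iSup₂_le (fun g hg => hg)
  have hJ'p : IsPGroup p J' := P.isPGroup'.to_le hJ'P
  have hJJ' : J ≤ J' := by
    apply sSup_le
    intro U hU
    obtain ⟨g, rfl⟩ := hA.1 U hU
    have hg : MulAut.conj g • Z ≤ (P : Subgroup G) := (le_sSup hU).trans hP
    exact le_iSup₂_of_le g hg le_rfl
  have hJ'N : J' ≤ normalizer ((J : Subgroup G) : Set G) := by
    by_contra hcon
    have hlt : J' ⊓ normalizer ((J : Subgroup G) : Set G) < J' := by
      refine lt_of_le_of_ne inf_le_left ?_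
      intro h1
      exact hcon (inf_eq_left.mp h1)
    obtain ⟨t, ht, htn, htN⟩ := Cfsg.Agent.Lib.Hall.exists_mem_normalizer_of_lt hJ'p hlt
    apply htn
    refine ⟨ht, ?_⟩
    apply mem_normalizer_of_conj_le_sSup
    intro U hU
    obtain ⟨g, rfl⟩ := hA.1 U hU
    have h1 : MulAut.conj g • Z ≤ J' ⊓ normalizer ((J : Subgroup G) : Set G) := by
      have h2 : MulAut.conj g • Z ≤ J := le_sSup hU
      refine le_inf (h2.trans hJJ') (h2.trans ?_)
      exact Subgroup.le_normalizer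
    have h3 : MulAut.conj t • (MulAut.conj g • Z) ≤ J' ⊓ normalizer ((J : Subgroup G) : Set G) := by
      have h4 := conj_smul_le_conj_smul (g := t) h1
      rwa [conj_smul_eq_self_of_mem_normalizer htN] at h4
    rw [conj_smul_conj_smul] at h3 ⊢
    exact hstep _ (h3.trans inf_le_right)
  have hJ'J : J' ≤ J := iSup₂_le (fun g hg => hstep g ((le_iSup₂_of_le (f := fun g (_ : g ∈ {g : G | MulAut.conj g • Z ≤ (P : Subgroup G)}) => MulAut.conj g • Z) g hg le_rfl).trans hJ'N))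
  have hEq : J' = J := le_antisymm hJ'J hJJ'
  rw [hEq]
  exact hYJ

end Cfsg.Agent.Lib.Core
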