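import Mathlib
import Cfsg.Agent.Lib.Core.CoreFree2

/-!
# Solvable primitive permutation groups; conjugacy of core-free maximal subgroups in solvable groups.
-/

set_option autoImplicit false

namespace Cfsg.Agent.Lib.Core

open Cfsg Subgroup MulAction
open scoped Pointwise commutatorElement IsMulCommutative

variable {G : Type*} [Group G]

/-- Point stabilizers of faithful primitive actions are core-free maximal subgroups. -/
theorem stabilizer_coatom_coreFree {Ω : Type*} [MulAction G Ω] [FaithfulSMul G Ω] [Nontrivial G]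
    (hprim : IsPreprimitive G Ω) (ω : Ω) :
    IsCoatom (stabilizer G ω) ∧ (stabilizer G ω).normalCore = ⊥ := by
  haveI := hprim
  have htrans : IsPretransitive G Ω := inferInstance
  have hcore : (stabilizer G ω).normalCore = ⊥ := by
    rw [eq_bot_iff]
    intro c hc
    rw [Subgroup.mem_bot]
    apply FaithfulSMul.eq_of_smul_eq_smul (α := Ω)
    intro ω'
    obtain ⟨x, rfl⟩ := htrans.exists_smul_eq ω ω'
    have h1 : x⁻¹ * c * x ∈ stabilizer G ω := by
      have := (Subgroup.normalCore_normal (stabilizer G ω)).conj_mem c hc x⁻¹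
      rw [inv_inv] at this
      exact Subgroup.normalCore_le _ this
    have h2 : (x⁻¹ * c * x) • ω = ω := h1
    rw [one_smul]
    calc c • x • ω = x • (x⁻¹ * c * x) • ω := by simp [mul_smul]
      _ = x • ω := by rw [h2]
  have hnt : Nontrivial Ω := by
    by_contra h
    rw [not_nontrivial_iff_subsingleton] at h
    obtain ⟨g, hg⟩ := exists_ne (1 : G)
    apply hg
    apply FaithfulSMul.eq_of_smul_eq_smul (α := Ω)
    intro a
    exact Subsingleton.elim _ _
  exact ⟨(isCoatom_stabilizer_iff_preprimitive G ω).mpr hprim, hcore⟩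

/-- S0548. -/
theorem primitive_complement [Finite G] [Group.IsSolvable G] {Ω : Type*} [MulAction G Ω] [FaithfulSMul G Ω]
    (hprim : IsPreprimitive G Ω) (M : Subgroup G) [hMn : M.Normal] (hM : M ≠ ⊥)
    (hmin : ∀ K : Subgroup G, K.Normal → K ≤ M → K = ⊥ ∨ K = M) (ω : Ω) :
    IsComplement' M (stabilizer G ω) ∧ stabilizer G ω ⊓ centralizer (M : Set G) = ⊥ ∧
      ∀ K : Subgroup G, K ≤ M → stabilizer G ω ≤ normalizer (K : Set G) → K = ⊥ ∨ K = M := by
  have hnt : Nontrivial G := by
    by_contra h
    rw [not_nontrivial_iff_subsingleton] at h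
    exact hM (Subsingleton.elim _ _)
  obtain ⟨hU, hcore⟩ := stabilizer_coatom_coreFree hprim ω
  obtain ⟨hab, p, hp, hpM⟩ := minimal_normal_elementary M hM hmin
  have hsup := sup_eq_top_of_coreFree hU hcore hM
  have hinfn := inf_normal_of_abelian hab hsup
  have hinf : M ⊓ stabilizer G ω = ⊥ := by
    have := Subgroup.normal_le_normalCore.mpr (inf_le_right : M ⊓ stabilizer G ω ≤ stabilizer G ω)
    rw [hcore] at this
    exact le_bot_iff.mp this
  refine ⟨isComplement'_of_inf_sup hinf hsup, ?_, ?_⟩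
  · rw [inf_comm]
    exact centralizer_inf_coreFree hU hcore M hM
  · intro K hKM hKU
    apply hmin K _ hKM
    apply normal_of_le_normalizer_of_sup hsup _ hKU
    apply le_normalizer_of_le_centralizer
    intro k hk
    rw [Subgroup.mem_centralizer_iff]
    intro m hm
    have := mul_comm' (⟨m, hm⟩ : M) ⟨k, hKM hk⟩
    exact congrArg Subtype.val this

/-- S0547. -/
theorem primitive_regular [Finite G] [Group.IsSolvable G] {Ω : Type*} [Nonempty Ω] [MulAction G Ω]
    [FaithfulSMul G Ω] (hprim : IsPreprimitive G Ω) (M : Subgroup G) [hMn : M.Normal] (hM : M ≠ ⊥)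
    (hmin : ∀ K : Subgroup G, K.Normal → K ≤ M → K = ⊥ ∨ K = M) :
    IsPretransitive M Ω ∧ (∀ ω : Ω, stabilizer M ω = ⊥) ∧
      ∃ p d : ℕ, p.Prime ∧ 0 < d ∧ Nat.card Ω = p ^ d ∧ Nat.card M = p ^ d := by
  haveI := hprim
  have htrans : IsPretransitive G Ω := inferInstance
  have hcomp := fun ω : Ω => (primitive_complement hprim M hM hmin ω).1
  have hsup : ∀ ω : Ω, M ⊔ stabilizer G ω = ⊤ := fun ω => (hcomp ω).sup_eq_top
  have hMt : IsPretransitive M Ω := by
    constructor
    intro a b
    obtain ⟨g, rfl⟩ := htrans.exists_smul_eq a b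
    have hg : g ∈ M ⊔ stabilizer G a := by
      rw [hsup]
      exact Subgroup.mem_top g
    obtain ⟨m, hm, u, hu, rfl⟩ := exists_mul_of_mem_sup_normal_left hg
    refine ⟨⟨m, hm⟩, ?_⟩
    have hu' : u • a = a := hu
    show m • a = (m * u) • a
    rw [mul_smul, hu']
  have hstab : ∀ ω : Ω, stabilizer M ω = ⊥ := by
    intro ω
    rw [eq_bot_iff]
    rintro ⟨m, hm⟩ h
    rw [Subgroup.mem_bot]
    have h1 : m ∈ M ⊓ stabilizer G ω := ⟨hm, h⟩
    rw [(hcomp ω).disjoint.eq_bot, Subgroup.mem_bot] at h1
    exact Subtype.ext h1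
  refine ⟨hMt, hstab, ?_⟩
  obtain ⟨hab, p, hp, hpM⟩ := minimal_normal_elementary M hM hmin
  haveI : Fact p.Prime := ⟨hp⟩
  have hMp : IsPGroup p M := by
    intro x
    refine ⟨1, ?_⟩
    apply Subtype.ext
    simpa using hpM x x.2
  obtain ⟨d, hd⟩ := IsPGroup.iff_card.mp hMp
  obtain ⟨ω⟩ := (inferInstance : Nonempty Ω)
  have hcard : Nat.card Ω = Nat.card M := by
    have h1 := index_stabilizer_of_transitive M ω
    rw [hstab ω, Subgroup.index_bot] at h1
    exact h1.symm
  refine ⟨p, d, hp, ?_, by rw [hcard, hd], hd⟩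
  rcases Nat.eq_zero_or_pos d with h0 | h0
  · exfalso
    rw [h0, pow_zero] at hd
    apply hM
    exact Subgroup.eq_bot_of_card_eq M hd
  · exact h0

/-- **In a finite solvable group, all core-free maximal subgroups are conjugate.** -/
theorem coreFree_conj [Finite G] [Group.IsSolvable G] (U V : Subgroup G) (hU : IsCoatom U) (hV : IsCoatom V)
    (hUc : U.normalCore = ⊥) (hVc : V.normalCore = ⊥) : ∃ g : G, MulAut.conj g • U = V := by
  classical
  have hnt : Nontrivial G := by
    by_contra h
    rw [not_nontrivial_iff_subsingleton] at h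
    exact hU.1 (Subsingleton.elim _ _)
  obtain ⟨M, hMn, hMne, -, hmin⟩ := exists_minimal_normal_le (K := (⊤ : Subgroup G)) inferInstance top_ne_bot
  obtain ⟨hab, p, hp, hpM⟩ := minimal_normal_elementary M hMne hmin
  haveI : Fact p.Prime := ⟨hp⟩
  have hMp : IsPGroup p M := by
    intro x
    refine ⟨1, ?_⟩
    apply Subtype.ext
    simpa using hpM x x.2
  have hsupU := sup_eq_top_of_coreFree hU hUc hMne
  have hsupV := sup_eq_top_of_coreFree hV hVc hMne
  have hinfU : M ⊓ U = ⊥ := by
    have hn := inf_normal_of_abelian hab hsupU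
    have := @Subgroup.normal_le_normalCore G _ U (M ⊓ U) hn |>.mpr inf_le_right
    rw [hUc] at this
    exact le_bot_iff.mp this
  have hinfV : M ⊓ V = ⊥ := by
    have hn := inf_normal_of_abelian hab hsupV
    have := @Subgroup.normal_le_normalCore G _ V (M ⊓ V) hn |>.mpr inf_le_right
    rw [hVc] at this
    exact le_bot_iff.mp this
  have hcU : IsComplement' M U := isComplement'_of_inf_sup hinfU hsupU
  have hcV : IsComplement' M V := isComplement'_of_inf_sup hinfV hsupV
  have hcardUV : Nat.card U = Nat.card V := by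
    have h1 := hcU.card_mul
    have h2 := hcV.card_mul
    exact Nat.eq_of_mul_eq_mul_left Nat.card_pos (h1.trans h2.symm)
  by_cases hMtop : M = ⊤
  · have hUb : U = ⊥ := by
      rw [hMtop, top_inf_eq] at hinfU
      exact hinfU
    have hVb : V = ⊥ := by
      rw [hMtop, top_inf_eq] at hinfV
      exact hinfV
    refine ⟨1, ?_⟩
    rw [conj_one_smul, hUb, hVb]
  -- a minimal normal subgroup of `G ⧸ M`
  let π := QuotientGroup.mk' M
  have hπ : Function.Surjective π := QuotientGroup.mk'_surjective M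
  have hQnt : Nontrivial (G ⧸ M) := QuotientGroup.nontrivial_iff.mpr hMtop
  obtain ⟨Rb, hRbn, hRbne, -, hRbmin⟩ := exists_minimal_normal_le (K := (⊤ : Subgroup (G ⧸ M))) inferInstance top_ne_bot
  obtain ⟨hRbab, r, hr, hrR⟩ := minimal_normal_elementary Rb hRbne hRbmin
  haveI : Fact r.Prime := ⟨hr⟩
  have hRbp : IsPGroup r Rb := by
    intro x
    refine ⟨1, ?_⟩
    apply Subtype.ext
    simpa using hrR x x.2
  let R : Subgroup G := Rb.comap π
  have hRn : R.Normal := hRbn.comap π
  have hMR : M ≤ R := by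
    intro x hx
    show π x ∈ Rb
    have : π x = 1 := (QuotientGroup.eq_one_iff x).mpr hx
    rw [this]
    exact Rb.one_mem
  have hRc : Nat.card R = Nat.card M * Nat.card Rb := by
    have := card_comap_of_surjective π hπ Rb
    rwa [QuotientGroup.ker_mk'] at this
  obtain ⟨k, hk⟩ := IsPGroup.iff_card.mp hRbp
  obtain ⟨j, hj⟩ := IsPGroup.iff_card.mp hMp
  have hkpos : 0 < k := by
    rcases Nat.eq_zero_or_pos k with h0 | h0
    · exfalso
      rw [h0, pow_zero] at hk
      exact hRbne (Subgroup.eq_bot_of_card_eq _ hk)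
    · exact h0
  -- the primes differ
  have hrp : r ≠ p := by
    rintro rfl
    have hRp : IsPGroup r R := by
      apply IsPGroup.of_card (n := j + k)
      rw [hRc, hj, hk, pow_add]
    have hRle : R ≤ pCore r G := le_pCore hRn hRp
    have hL : pCore r G ≠ ⊥ := by
      intro h
      rw [h, le_bot_iff] at hRle
      apply hMne
      rw [eq_bot_iff, ← hRle]
      exact hMR
    obtain ⟨-, -, hmin2, -, -⟩ := coreFree_pCore r hL U hU hUc
    have hMle : M ≤ pCore r G := hMR.trans hRle
    have hMeq : M = pCore r G := (hmin2 M hMn hMle).resolve_left hMne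
    have hRM : R ≤ M := hMeq ▸ hRle
    -- then `Rb` is trivial
    apply hRbne
    rw [eq_bot_iff]
    intro x hx
    obtain ⟨g, rfl⟩ := hπ x
    have hg : g ∈ R := hx
    exact Subgroup.mem_bot.mpr ((QuotientGroup.eq_one_iff g).mpr (hRM hg))
  -- `U ⊓ R` and `V ⊓ R` are Sylow in `R`
  have hfac : (Nat.card R).factorization r = k := by
    rw [hRc, hj, hk, Nat.factorization_mul (pow_ne_zero _ hp.ne_zero) (pow_ne_zero _ hr.ne_zero),
      Nat.factorization_pow, Nat.factorization_pow, hr.factorization, hp.factorization]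
    simp [Finsupp.single_apply, hrp.symm, hrp]
  have hcardinf : ∀ X : Subgroup G, IsComplement' M X → Nat.card (X ⊓ R : Subgroup G) = r ^ k := by
    intro X hX
    have h1 : M ⊔ (X ⊓ R) = R := by
      apply le_antisymm (sup_le hMR inf_le_right)
      intro y hy
      have : y ∈ M ⊔ X := by
        rw [hX.sup_eq_top]
        exact Subgroup.mem_top y
      obtain ⟨m, hm, u, hu, rfl⟩ := exists_mul_of_mem_sup_normal_left this
      have hu' : u ∈ X ⊓ R := by
        refine ⟨hu, ?_⟩
        have := R.mul_mem (R.inv_mem (hMR hm)) hy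
        rwa [inv_mul_cancel_left] at this
      exact Subgroup.mul_mem _ (Subgroup.mem_sup_left hm) (Subgroup.mem_sup_right hu')
    have h2 : (M ⊓ (X ⊓ R)) = ⊥ := by
      rw [eq_bot_iff, ← hX.disjoint.eq_bot]
      exact le_inf inf_le_left (inf_le_right.trans inf_le_left)
    have h3 : Nat.card R = Nat.card M * Nat.card (X ⊓ R : Subgroup G) := by
      have h4 : IsComplement' (M.subgroupOf R) ((X ⊓ R).subgroupOf R) := by
        have hn : (M.subgroupOf R).Normal := inferInstance
        apply isComplement'_of_inf_sup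
        · rw [eq_bot_iff]
          rintro ⟨y, hy⟩ ⟨h3, h4⟩
          have h5 : y ∈ M ⊓ (X ⊓ R) := ⟨h3, h4⟩
          rw [h2, Subgroup.mem_bot] at h5
          exact Subgroup.mem_bot.mpr (Subtype.ext h5)
        · rw [eq_top_iff]
          rintro ⟨y, hy⟩ -
          rw [← h1] at hy
          obtain ⟨m, hm, u, hu, rfl⟩ := exists_mul_of_mem_sup_normal_left hy
          have e : (⟨m * u, h1 ▸ hy⟩ : R) = ⟨m, hMR hm⟩ * ⟨u, hu.2⟩ := rfl
          rw [e]
          exact Subgroup.mul_mem _ (Subgroup.mem_sup_left hm) (Subgroup.mem_sup_right hu)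
      have h5 := h4.card_mul
      have h6 : Nat.card (M.subgroupOf R) = Nat.card M :=
        Nat.card_congr (Subgroup.subgroupOfEquivOfLe hMR).toEquiv
      have h7 : Nat.card ((X ⊓ R).subgroupOf R) = Nat.card (X ⊓ R : Subgroup G) :=
        Nat.card_congr (Subgroup.subgroupOfEquivOfLe inf_le_right).toEquiv
      rw [h6, h7] at h5
      exact h5.symm
    rw [hRc] at h3
    have h8 := Nat.eq_of_mul_eq_mul_left Nat.card_pos h3
    rw [← h8, hk]
  let mk : ∀ X : Subgroup G, IsComplement' M X → Sylow r R := fun X hX =>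
    Sylow.ofCard ((X ⊓ R).subgroupOf R) (by
      rw [hfac]
      rw [← hcardinf X hX]
      exact Nat.card_congr (Subgroup.subgroupOfEquivOfLe inf_le_right).toEquiv)
  obtain ⟨x, hx⟩ := MulAction.exists_smul_eq R (mk U hcU) (mk V hcV)
  have hconj : MulAut.conj (x : G) • (U ⊓ R) = V ⊓ R := by
    apply conj_smul_of_subgroupOf inf_le_right inf_le_right
    have := congrArg (fun S : Sylow r R => (S : Subgroup R)) hx
    simp only [Sylow.coe_subgroup_smul] at this
    exact this
  set T := V ⊓ R with hT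
  have hTne : T ≠ ⊥ := by
    intro h
    have h1 := hcardinf V hcV
    rw [← hT, h, Subgroup.card_bot] at h1
    exact (Nat.one_lt_pow hkpos.ne' hr.one_lt).ne h1
  -- normalizers
  have hVN : V ≤ normalizer (T : Set G) := by
    intro v hv
    apply mem_normalizer_of_conj_smul_eq
    rw [hT, Subgroup.smul_inf, conj_smul_eq_self_of_mem hv, conj_smul_eq_self_of_normal _ R]
  have hNne : normalizer (T : Set G) ≠ ⊤ := by
    intro h
    have hTn : T.Normal := Subgroup.normalizer_eq_top_iff.mp h
    have := Subgroup.normal_le_normalCore.mpr (inf_le_left : T ≤ V)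
    rw [hVc] at this
    exact hTne (le_bot_iff.mp this)
  have hNV : normalizer (T : Set G) = V := by
    by_contra hne
    exact hNne (hV.2 _ (lt_of_le_of_ne hVN (Ne.symm hne)))
  have hUT : MulAut.conj (x : G) • U ≤ normalizer (T : Set G) := by
    intro y hy
    apply mem_normalizer_of_conj_smul_eq
    rw [mem_conj_smul_iff] at hy
    rw [← hconj, conj_smul_conj_smul]
    have e : y * (x : G) = (x : G) * ((x : G)⁻¹ * y * (x : G)) := by group
    rw [e, ← conj_smul_conj_smul, Subgroup.smul_inf, conj_smul_eq_self_of_mem hy, conj_smul_eq_self_of_normal _ R]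
  refine ⟨x, Subgroup.eq_of_le_of_card_ge (hNV ▸ hUT) ?_⟩
  rw [card_conj_smul, hcardUV]

end Cfsg.Agent.Lib.Core
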